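import Cfsg.Agent.Lib.Helper17.LBal6

set_option autoImplicit false

namespace Cfsg.Agent.Lib.Helper17

open Subgroup Cfsg.Agent.Lib.Helper10

section balanced

variable {G : Type*} [Group G] [Finite G]

/-- Lemma Z, general target. -/
theorem commutator_eq_bot_of_hom' {Γ : Type*} [Group Γ] {p : ℕ} {L D : Subgroup G}
    (hL : Cfsg.IsComponent L) (hp : p ∣ (center ↥L).index) (hDn : D ≤ normalizer (L : Set G))
    (hp1 : p ≠ 1) (f : ↥L →* Γ) (hker : f.ker ≤ center ↥L) (N : Subgroup Γ)
    (hNc : (Nat.card N).Coprime p)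
    (hf : ∀ (l : ↥L) (d : G) (hd : d ∈ D),
      f (l * ⟨d * (l : G)⁻¹ * d⁻¹, conj_mem_of_le_normalizer hDn hd (inv_mem l.2)⟩) ∈ N) :
    ⁅L, D⁆ = ⊥ := by
  have hML : ⁅L, D⁆ ≤ L := commutator_le_of_le_normalizer hDn
  rcases component_normal_dichotomy hL hML (le_normalizer_commutator_left L D) with h | h
  · exfalso
    have h1 : ⁅L, D⁆ ≤ (N.comap f).map L.subtype := by
      rw [commutator_le]
      intro l hl d hd
      refine ⟨⟨l, hl⟩ * ⟨d * l⁻¹ * d⁻¹, conj_mem_of_le_normalizer hDn hd (inv_mem hl)⟩,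
        hf ⟨l, hl⟩ d hd, ?_⟩
      rw [commutatorElement_def]
      simp only [Subgroup.subtype_apply, Subgroup.coe_mul]
      group
    rw [h] at h1
    have h2 : f.range ≤ N := by
      rintro _ ⟨l, rfl⟩
      obtain ⟨l', hl', hll⟩ := h1 l.2
      have : l' = l := Subtype.ext hll
      rw [← this]; exact hl'
    have h3 : p ∣ Nat.card N := by
      calc p ∣ (center ↥L).index := hp
        _ ∣ f.ker.index := index_dvd_of_le hker
        _ = Nat.card f.range := index_ker f
        _ ∣ Nat.card N := card_dvd_of_le h2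
    have h4 : p ∣ 1 := by
      rw [← Nat.Coprime.gcd_eq_one hNc]
      exact Nat.dvd_gcd h3 dvd_rfl
    exact hp1 (Nat.dvd_one.mp h4)
  · exact commutator_eq_bot_of_le_centralizer (component_perfect hL) h

/-- FGT 31.19. -/
theorem balanced_of_components (p : ℕ) [hp : Fact p.Prime] (hO : Cfsg.pPrimeCore p G = ⊥)
    (h : ∀ L : Subgroup G, Cfsg.IsComponent L → ∀ H : Subgroup G, L ≤ H →
      (L.subgroupOf H).Normal → ∀ [((centralizer (L : Set G)).subgroupOf H).Normal],
        Cfsg.IsBalancedFor p (↥H ⧸ (centralizer (L : Set G)).subgroupOf H)) :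
    Cfsg.IsBalancedFor p G := by
  intro x hx
  set D := Cfsg.centralizerPPrimeCore p x with hD
  have hbot : D = ⊥ := by
    apply eq_bot_of_centralizes hO (centralizerPPrimeCore_coprime p x)
      (centralizerPPrimeCore_le_centralizer_pCore hx)
    intro L hL
    have hDn : D ≤ normalizer (L : Set G) := fun d hd =>
      mem_compKer.mp (centralizerPPrimeCore_le_compKer hO hx hd) L hL
    suffices hs : ⁅L, D⁆ = ⊥ by
      rw [commutator_eq_bot_iff_le_centralizer, le_centralizer_iff] at hs
      exact hs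
    by_cases hne : ⁅L, zpowers x⁆ = L
    · have hxn : x ∈ normalizer (L : Set G) := mem_normalizer_of_commutator_eq hne
      have hxc : x ∉ centralizer (L : Set G) := by
        intro hc
        have h3 : ⁅L, zpowers x⁆ = ⊥ := by
          rw [commutator_eq_bot_iff_le_centralizer, le_centralizer_iff, zpowers_le]
          exact hc
        exact component_ne_bot hL (hne.symm.trans h3)
      set T := zpowers x ⊔ D with hT
      set H₀ := T ⊔ L with hH₀
      have hTn : T ≤ normalizer (L : Set G) := sup_le (zpowers_le.mpr hxn) hDn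
      have hH₀n : H₀ ≤ normalizer (L : Set G) := sup_le hTn le_normalizer
      have hLH : L ≤ H₀ := le_sup_right
      have hxH : x ∈ H₀ := (le_sup_left.trans le_sup_left : zpowers x ≤ H₀) (mem_zpowers x)
      have hDH : D ≤ H₀ := le_sup_right.trans le_sup_left
      have hTx : T ≤ centralizer ({x} : Set G) := by
        apply sup_le
        · rw [zpowers_le, mem_centralizer_singleton_iff]
        · exact centralizerPPrimeCore_le_centralizer p x
      have hdec : ∀ h ∈ H₀, ∃ l ∈ L, ∃ t ∈ centralizer ({x} : Set G), h = l * t := by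
        intro h hh
        obtain ⟨t, ht, l, hl, htl⟩ := (mem_sup_of_le_normalizer hTn).mp (inv_mem hh)
        refine ⟨l⁻¹, inv_mem hl, t⁻¹, inv_mem (hTx ht), ?_⟩
        rw [← mul_inv_rev, ← htl, inv_inv]
      have hLn : (L.subgroupOf H₀).Normal := (normal_subgroupOf_iff_le_normalizer hLH).mpr hH₀n
      have hCn : ((centralizer (L : Set G)).subgroupOf H₀).Normal :=
        normal_subgroupOf_of_le_normalizer
          (hH₀n.trans (Cfsg.Agent.Lib.Helper17.normalizer_le_normalizer_centralizer L))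
      have hbal := h L hL H₀ hLH hLn
      set ψ := QuotientGroup.mk' ((centralizer (L : Set G)).subgroupOf H₀) with hψ
      have hker : ∀ h : ↥H₀, ψ h = 1 ↔ (h : G) ∈ centralizer (L : Set G) := by
        intro h
        rw [hψ, QuotientGroup.mk'_apply, QuotientGroup.eq_one_iff, mem_subgroupOf]
      have hWZ : D ≤ centralizer ((L ⊓ centralizer (L : Set G) : Subgroup G) : Set G) := by
        refine le_trans ?_ (centralizer_le
          (show ((L ⊓ centralizer (L : Set G) : Subgroup G) : Set G) ⊆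
            (Cfsg.pCore p G : Set G) from component_center_le_pCore hO hL))
        exact centralizerPPrimeCore_le_centralizer_pCore hx
      have h1 := core_lemma hH₀n hxH ψ (QuotientGroup.mk'_surjective _) hker hdec hDH le_rfl hWZ
      have ho : orderOf (ψ ⟨x, hxH⟩) = p := by
        apply orderOf_eq_prime
        · rw [← map_pow]
          have : (⟨x, hxH⟩ : ↥H₀) ^ p = 1 := Subtype.ext (by
            show x ^ p = 1
            rw [← hx]; exact pow_orderOf_eq_one x)
          rw [this, map_one]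
        · intro h2
          exact hxc ((hker _).mp h2)
      have h2 := h1.trans (hbal _ ho)
      apply commutator_eq_bot_of_hom' hL (component_prime_dvd_index_center hO hL) hDn hp.1.ne_one
        (ψ.comp (inclusion hLH)) _ _ (pPrimeCore_coprime p _)
      · intro l d hd
        have hN := (pPrimeCore_mem p (↥H₀ ⧸ (centralizer (L : Set G)).subgroupOf H₀)).1
        have hd' : ψ ⟨d, hDH hd⟩ ∈ Cfsg.pPrimeCore p (↥H₀ ⧸ (centralizer (L : Set G)).subgroupOf H₀) :=
          h2 (mem_map_of_mem ψ (mem_subgroupOf.mpr hd))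
        have e : (ψ.comp (inclusion hLH)) (l * ⟨d * (l : G)⁻¹ * d⁻¹,
            conj_mem_of_le_normalizer hDn hd (inv_mem l.2)⟩)
            = (ψ (inclusion hLH l) * ψ ⟨d, hDH hd⟩ * (ψ (inclusion hLH l))⁻¹) *
              (ψ ⟨d, hDH hd⟩)⁻¹ := by
          have e0 : inclusion hLH (l * ⟨d * (l : G)⁻¹ * d⁻¹,
              conj_mem_of_le_normalizer hDn hd (inv_mem l.2)⟩)
              = inclusion hLH l * ⟨d, hDH hd⟩ * (inclusion hLH l)⁻¹ * (⟨d, hDH hd⟩ : ↥H₀)⁻¹ := by
            apply Subtype.ext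
            simp only [Subgroup.coe_mul, Subgroup.coe_inv, Subgroup.coe_inclusion]
            group
          rw [MonoidHom.comp_apply, e0, map_mul, map_mul, map_mul, map_inv, map_inv]
        rw [e]
        exact mul_mem (hN.conj_mem _ hd' _) (inv_mem hd')
      · intro l hl
        have h3 : ψ (inclusion hLH l) = 1 := hl
        have h4 := (hker _).mp h3
        rw [mem_center_iff]
        intro y
        apply Subtype.ext
        exact (mem_centralizer_iff.mp h4) y y.2
    · exact commutator_centralizerPPrimeCore_eq_bot hO hx hL hne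
  rw [hbot]
  exact bot_le

/-- A nontrivial subgroup of `O_{p'}(C(t))` moves a `t`-invariant component not centralized by
`t`. -/
theorem exists_component_of_core {p : ℕ} [Fact p.Prime] (hO : Cfsg.pPrimeCore p G = ⊥) {t : G}
    (ht : orderOf t = p) {Y : Subgroup G} (hY1 : Y ≠ ⊥)
    (hY : Y ≤ Cfsg.centralizerPPrimeCore p t) :
    ∃ E : Subgroup G, Cfsg.IsComponent E ∧ t ∈ normalizer (E : Set G) ∧
      Y ≤ normalizer (E : Set G) ∧ t ∉ centralizer (E : Set G) ∧
      ¬ Y ≤ centralizer (E : Set G) := by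
  have h1 : ∃ E : Subgroup G, Cfsg.IsComponent E ∧ ¬ Y ≤ centralizer (E : Set G) := by
    by_contra hcon
    push Not at hcon
    apply hY1
    exact eq_bot_of_centralizes hO
      (Nat.Coprime.coprime_dvd_left (card_dvd_of_le hY) (centralizerPPrimeCore_coprime p t))
      (hY.trans (centralizerPPrimeCore_le_centralizer_pCore ht)) hcon
  obtain ⟨E, hE, hYE⟩ := h1
  have h2 : ⁅E, zpowers t⁆ = E := by
    by_contra hne
    apply hYE
    have h3 := commutator_centralizerPPrimeCore_eq_bot hO ht hE hne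
    rw [commutator_eq_bot_iff_le_centralizer, le_centralizer_iff] at h3
    exact hY.trans h3
  refine ⟨E, hE, mem_normalizer_of_commutator_eq h2, ?_, ?_, hYE⟩
  · exact fun y hy => mem_compKer.mp (centralizerPPrimeCore_le_compKer hO ht (hY hy)) E hE
  · intro hc
    have h3 : ⁅E, zpowers t⁆ = ⊥ := by
      rw [commutator_eq_bot_iff_le_centralizer, le_centralizer_iff, zpowers_le]
      exact hc
    exact component_ne_bot hE (h2.symm.trans h3)

theorem exists_component_of_oddCore (H : Subgroup G) (hO : Cfsg.pPrimeCore 2 ↥H = ⊥) (t : G)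
    (ht : orderOf t = 2) (htH : t ∈ normalizer (H : Set G)) (Y : Subgroup G) (hY1 : Y ≠ ⊥)
    (hY : Y ≤ (Cfsg.pPrimeCore 2 ↥(H ⊓ centralizer ({t} : Set G))).map
      (H ⊓ centralizer ({t} : Set G)).subtype) :
    ∃ E : Subgroup ↥H, Cfsg.IsComponent E ∧
      (E.map H.subtype).map (MulAut.conj t).toMonoidHom = E.map H.subtype ∧
      Y ≤ normalizer ((E.map H.subtype : Subgroup G) : Set G) ∧
      ¬ (t ∈ centralizer ((E.map H.subtype : Subgroup G) : Set G)) ∧
      ¬ (Y ≤ centralizer ((E.map H.subtype : Subgroup G) : Set G)) := by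
  have : Fact (Nat.Prime 2) := ⟨Nat.prime_two⟩
  set H₁ := zpowers t ⊔ H with hH₁
  have hzn : zpowers t ≤ normalizer (H : Set G) := zpowers_le.mpr htH
  have hHH₁ : H ≤ H₁ := le_sup_right
  have htH₁ : t ∈ H₁ := (le_sup_left : zpowers t ≤ H₁) (mem_zpowers t)
  have hH₁n : H₁ ≤ normalizer (H : Set G) := sup_le hzn le_normalizer
  set ι := inclusion hHH₁ with hι
  have hιi : Function.Injective ι := inclusion_injective hHH₁
  have hιr : ι.range = H.subgroupOf H₁ := inclusion_range hHH₁
  have hHn : (H.subgroupOf H₁).Normal := (normal_subgroupOf_iff_le_normalizer hHH₁).mpr hH₁n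
  have ht2 : t * t = 1 := by rw [← pow_two, ← ht]; exact pow_orderOf_eq_one t
  have hdec : ∀ y ∈ H₁, ∃ n : ℤ, ∃ b ∈ H, y = t ^ n * b := by
    intro y hy
    obtain ⟨a, ⟨n, rfl⟩, b, hb, rfl⟩ := (mem_sup_of_le_normalizer hzn).mp hy
    exact ⟨n, b, hb, rfl⟩
  have hsq : ∀ y ∈ H₁, y * y ∈ H := by
    intro y hy
    obtain ⟨n, b, hb, rfl⟩ := hdec y hy
    have h1 : t ^ n * t ^ n = 1 := by
      rw [← (Commute.refl t).mul_zpow, ht2, one_zpow]
    have h2 : (t ^ n)⁻¹ * b * (t ^ n)⁻¹⁻¹ ∈ H :=
      conj_mem_of_le_normalizer hzn (inv_mem (zpow_mem (mem_zpowers t) n)) hb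
    have h3 : t ^ n * b * (t ^ n * b) = (t ^ n * t ^ n) * ((t ^ n)⁻¹ * b * (t ^ n)⁻¹⁻¹) * b := by
      group
    rw [h3, h1, one_mul]
    exact mul_mem h2 hb
  -- (1) the core of `H₁` is trivial
  have hO₁ : Cfsg.pPrimeCore 2 ↥H₁ = ⊥ := by
    have h1 := comap_core_of_injective (p := 2) ι hιi (by rw [hιr]; exact hHn.isSubnormal)
    rw [hO] at h1
    rw [eq_bot_iff]
    intro y hy
    have h2 : (⟨(y : G) * y, hsq y y.2⟩ : ↥H) ∈ (Cfsg.pPrimeCore 2 ↥H₁).comap ι := by
      rw [mem_comap]
      have : ι ⟨(y : G) * y, hsq y y.2⟩ = y * y := Subtype.ext rfl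
      rw [this]
      exact mul_mem hy hy
    rw [h1, mem_bot] at h2
    have h3 : y ^ 2 = 1 := by
      apply Subtype.ext
      rw [pow_two]
      have h6 : (y : G) * (y : G) = 1 := congrArg Subtype.val h2
      exact h6
    have h4 : (orderOf y).Coprime 2 := orderOf_coprime_of_mem (pPrimeCore_coprime 2 ↥H₁) hy
    have h5 : orderOf y ∣ 1 := by
      rw [← Nat.Coprime.gcd_eq_one h4]
      exact Nat.dvd_gcd dvd_rfl (orderOf_dvd_of_pow_eq_one h3)
    rw [mem_bot]
    exact orderOf_eq_one_iff.mp (Nat.dvd_one.mp h5)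
  -- (2), (3)
  set t' : ↥H₁ := ⟨t, htH₁⟩ with ht'
  have hto : orderOf t' = 2 := by rw [← Subgroup.orderOf_coe]; exact ht
  set HC := H ⊓ centralizer ({t} : Set G) with hHC
  set V := (Cfsg.pPrimeCore 2 ↥HC).map HC.subtype with hV
  have hVHC : V ≤ HC := map_subtype_le _
  have hVH₁ : V ≤ H₁ := (hVHC.trans inf_le_left).trans hHH₁
  have hV' : V.subgroupOf H₁ ≤ Cfsg.centralizerPPrimeCore 2 t' := by
    apply le_centralizerPPrimeCore
    · intro v hv
      rw [mem_centralizer_singleton_iff]
      apply Subtype.ext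
      exact mem_centralizer_singleton_iff.mp (hVHC (mem_subgroupOf.mp hv)).2
    · intro c hc
      apply mem_normalizer_subgroupOf
      apply normalizer_le_normalizer_core 2 HC
      have h1 : (c : G) ∈ centralizer ({t} : Set G) := by
        rw [mem_centralizer_singleton_iff]
        exact congrArg Subtype.val (mem_centralizer_singleton_iff.mp hc)
      exact le_normalizer_inf (K := zpowers (c : G)) (zpowers_le.mpr (hH₁n c.2))
        (zpowers_le.mpr (le_normalizer h1)) (mem_zpowers _)
    · rw [Nat.card_congr (subgroupOfEquivOfLe hVH₁).toEquiv]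
      exact core_card_coprime 2 HC
  have hYH₁ : Y ≤ H₁ := hY.trans hVH₁
  have hY' : Y.subgroupOf H₁ ≤ Cfsg.centralizerPPrimeCore 2 t' :=
    le_trans (fun y hy => mem_subgroupOf.mpr (hY (mem_subgroupOf.mp hy))) hV'
  have hY'1 : Y.subgroupOf H₁ ≠ ⊥ := by
    intro h
    apply hY1
    rw [eq_bot_iff]
    intro y hy
    have h1 : (⟨y, hYH₁ hy⟩ : ↥H₁) ∈ Y.subgroupOf H₁ := mem_subgroupOf.mpr hy
    rw [h, mem_bot] at h1
    rw [mem_bot]
    exact congrArg Subtype.val h1
  -- (4)
  obtain ⟨E', hE', htE, hYE, htc, hYc⟩ := exists_component_of_core hO₁ hto hY'1 hY'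
  -- (5)
  have hE'r : E' ≤ ι.range := by
    rw [hιr, ← component_perfect hE', commutator_le]
    intro a _ b _
    rw [← QuotientGroup.eq_one_iff, ← QuotientGroup.mk'_apply, map_commutatorElement]
    have hz : ∀ y : ↥H₁, ∃ n : ℤ, QuotientGroup.mk' (H.subgroupOf H₁) y
        = (QuotientGroup.mk' (H.subgroupOf H₁) t') ^ n := by
      intro y
      obtain ⟨n, b, hb, hy⟩ := hdec y y.2
      refine ⟨n, ?_⟩
      rw [← map_zpow]
      apply QuotientGroup.eq.mpr
      rw [mem_subgroupOf]
      have : ((y⁻¹ * t' ^ n : ↥H₁) : G) = b⁻¹ := by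
        simp only [Subgroup.coe_mul, Subgroup.coe_inv, Subgroup.coe_zpow, hy]
        show (t ^ n * b)⁻¹ * t ^ n = b⁻¹
        group
      rw [this]
      exact inv_mem hb
    obtain ⟨n, hn⟩ := hz a
    obtain ⟨m, hm⟩ := hz b
    rw [hn, hm, commutatorElement_eq_one_iff_commute]
    exact (Commute.refl _).zpow_zpow n m
  -- (6)
  have hmap : (E'.comap ι).map H.subtype = E'.map H₁.subtype := by
    have h1 : H.subtype = H₁.subtype.comp ι := (subtype_comp_inclusion hHH₁).symm
    rw [h1, ← Subgroup.map_map, map_comap_eq, inf_eq_right.mpr hE'r]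
  refine ⟨E'.comap ι, isComponent_comap_of_injective ι hιi hE' hE'r, ?_⟩
  rw [hmap]
  have hnorm : ∀ c : ↥H₁, c ∈ normalizer (E' : Set ↥H₁) →
      (c : G) ∈ normalizer ((E'.map H₁.subtype : Subgroup G) : Set G) := fun c hc =>
    le_normalizer_map H₁.subtype (mem_map_of_mem H₁.subtype hc)
  have hcent : ∀ c : ↥H₁, (c : G) ∈ centralizer ((E'.map H₁.subtype : Subgroup G) : Set G) →
      c ∈ centralizer (E' : Set ↥H₁) := by
    intro c hc
    rw [mem_centralizer_iff]
    intro e he
    apply Subtype.ext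
    exact (mem_centralizer_iff.mp hc) e (mem_map_of_mem H₁.subtype he)
  refine ⟨map_conj_eq_of_mem_normalizer (hnorm t' htE), ?_, ?_, ?_⟩
  · intro y hy
    exact hnorm ⟨y, hYH₁ hy⟩ (hYE (mem_subgroupOf.mpr hy))
  · intro hc
    exact htc (hcent t' hc)
  · intro hc
    apply hYc
    intro y hy
    exact hcent y (hc (mem_subgroupOf.mp hy))

end balanced

end Cfsg.Agent.Lib.Helper17
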